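import Cfsg.Agent.ThK.Rel
import Cfsg.Agent.ThK1.Bound

set_option autoImplicit false
set_option Elab.async false
set_option maxRecDepth 100000
set_option linter.all false

namespace Cfsg.Agent.ThK
open Cfsg.Agent.CGT

noncomputable def l0_n6 : Net := Net.cons 1 0x1 <|
  Net.cons 2 0x1 <|
  Net.nil
noncomputable def l0_ns : List Net := [Net.nil, Net.nil, Net.nil, Net.nil, Net.nil, Net.nil, l0_n6]
noncomputable def l0_R : List (List ℕ) := [[0, 0], [2, 2], [4, 4], [6, 6], [8, 8], [0, 2, 0, 2, 0, 2], [0, 8, 0, 8], [2, 4, 2, 4, 2, 4], [2, 6, 2, 6], [2, 8, 2, 8], [0, 7, 5, 7, 5, 7, 5, 7, 5], [4, 8, 4, 8], [6, 8, 6, 8, 6, 8], [2, 4, 6, 8, 2, 4, 6, 8, 2, 4, 6, 8, 2, 4, 6, 8, 2, 4, 6, 8, 2, 4, 6, 8, 2, 4, 6, 8, 2, 4, 6, 8], [10, 10, 10, 10, 10, 10, 10], [11, 1, 10, 0], [11, 3, 10, 2], [11, 5, 10, 4], [10, 6, 10, 6], [9, 11, 8, 11, 11, 9, 10, 10, 10], [12, 12, 12], [13, 1,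 12, 0], [13, 3, 12, 2], [13, 5, 12, 4], [13, 7, 12, 6], [13, 9, 12, 8], [13, 10, 12, 11, 11]]
noncomputable def l0_S0 : List (List ℕ) := [[0], [2], [4], [6], [8], [10]]
noncomputable def l0_E : Enum := ⟨l0_ns, l0_R, l0_S0, [], 0⟩
theorem l0_v : validAll (2 ^ 3) l0_ns = true := by decide +kernel
theorem l0_p0 : holdsB 3 l0_ns l0_R = true := by decide +kernel
theorem l0_p : Holds (lp l0_ns) l0_R := holdsB_sound l0_v l0_p0
theorem l0_f : allL l0_E.Sub (fixN l0_E.ns l0_E.b0) = true := by decide +kernel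
theorem l0_r0 : l0_E.run [50, 49, 54, 53, 80, 49, 3, 1, 7, 9, 11, 17, 15, 25, 19, 33, 23, 41, 4180, 5, 12372, 1, 4184, 13, 12376, 9, 4188, 21, 12380, 17, 4192, 29, 12384, 25, 4196, 37, 12388, 33, 4200, 41, 4200, 41] (1 <<< 0) (List.replicate 15 0) (Enum.done 3 [0, 2, 4, 6, 8, 10, 12]) = true := by decide +kernel
theorem l0_fin {G : Type*} [Group G] {γ : ℕ → G} (hR : Holds (ext γ) l0_R) {H : Subgroup G}
    (hS : ∀ u ∈ l0_S0, ev (ext γ) u ∈ H) : l0_E.Fin γ H 3 [0, 2, 4, 6, 8, 10, 12] :=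
  have hy : l0_E.Hyp γ H := Enum.hyp_of l0_v hR l0_p hS l0_f
  (Enum.fin_of_done hy (Enum.inv_init 15) l0_r0)
theorem bd0 {G : Type*} [Group G] {γ : ℕ → G} (hR : Holds (ext γ) RR) : Bd (gp γ [0, 2, 4, 6, 8, 10, 12]) 634023936 :=
  Bd.step (l0_fin (hR.subR (by decide +kernel)) (wordsIn_sound γ (L := [0, 2, 4, 6, 8, 10]) (by decide +kernel))) (ThK1.bd0 (hR.subR (by decide +kernel))) (by norm_num)

end Cfsg.Agent.ThK
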