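import Cfsg.Agent.ThK.Dce_0
import Cfsg.Agent.ThK.Dce_1
import Cfsg.Agent.ThK.Dce_2
import Cfsg.Agent.ThK.Dce_3
import Cfsg.Agent.ThK.Dce_4
import Cfsg.Agent.ThK.Dce_5
import Cfsg.Agent.ThK.Dce_6
import Cfsg.Agent.ThK.Dce_7

set_option autoImplicit false
set_option Elab.async false
set_option maxRecDepth 100000
set_option linter.all false

namespace Cfsg.Agent.ThK
open Cfsg.Agent.CGT

theorem dd_up {K Γ A : Type*} [Group K] [Group Γ] [CommGroup A] {X : Ctx K Γ A} (hy : dd.Hyp X x_ns) : dd.Upto X 3891 :=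
  ((((((((((((((((((((((((((((((((((((((((((((((((((Dce.Upto.zero).step hy dd_c0).step hy dd_c1).step hy dd_c2).step hy dd_c3).step hy dd_c4).step hy dd_c5).step hy dd_c6).step hy dd_c7).step hy dd_c8).step hy dd_c9).step hy dd_c10).step hy dd_c11).step hy dd_c12).step hy dd_c13).step hy dd_c14).step hy dd_c15).step hy dd_c16).step hy dd_c17).step hy dd_c18).step hy dd_c19).step hy dd_c20).step hy dd_c21).step hy dd_c22).step hy dd_c23).step hy dd_c24).step hy dd_c25).step hy dd_c26).step hy dd_c27).step hy dd_c28).step hy dd_c29).step hy dd_c30).step hy dd_c31).step hy dd_c32).step hy dd_c33).step hy dd_c34).step hy dd_c35).step hy dd_c36).step hy dd_c37).step hy dd_c38).step hy dd_c39).step hy dd_c40).step hy dd_c41).step hy dd_c42).step hy dd_c43).step hy dd_c44).step hy dd_c45).step hy dd_c46).step hy dd_c47).step hy dd_c48)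
theorem dd_all {K Γ A : Type*} [Group K] [Group Γ] [CommGroup A] {X : Ctx K Γ A} (hy : dd.Hyp X x_ns) (hA : ∀ a, X.ι a ∈ X.H)
    (hL : ∀ h, X.φ h 0 = 0 → h ∈ gw X.γ dd.LW) (hO : ∀ h, (c_l0.O).testBit (X.φ h 0) = true) :
    ∀ d ∈ [0, 1, 2, 3, 4, 5, 6, 7, 8, 9, 10], dd.Closed X [0, 1, 2, 3, 4, 5, 6, 7, 8, 9, 10] d := by
  simp only [List.forall_mem_cons, List.not_mem_nil, IsEmpty.forall_iff, implies_true, and_true]
  exact ⟨Dce.nodeB_sound hy (dd_up hy) hA (by decide +kernel) hL hO dd_n0,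
    Dce.nodeB_sound hy (dd_up hy) hA (by decide +kernel) hL hO dd_n1,
    Dce.nodeB_sound hy (dd_up hy) hA (by decide +kernel) hL hO dd_n2,
    Dce.nodeB_sound hy (dd_up hy) hA (by decide +kernel) hL hO dd_n3,
    Dce.nodeB_sound hy (dd_up hy) hA (by decide +kernel) hL hO dd_n4,
    Dce.nodeB_sound hy (dd_up hy) hA (by decide +kernel) hL hO dd_n5,
    Dce.nodeB_sound hy (dd_up hy) hA (by decide +kernel) hL hO dd_n6,
    Dce.nodeB_sound hy (dd_up hy) hA (by decide +kernel) hL hO dd_n7,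
    Dce.nodeB_sound hy (dd_up hy) hA (by decide +kernel) hL hO dd_n8,
    Dce.nodeB_sound hy (dd_up hy) hA (by decide +kernel) hL hO dd_n9,
    Dce.nodeB_sound hy (dd_up hy) hA (by decide +kernel) hL hO dd_n10⟩

end Cfsg.Agent.ThK
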