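import Cfsg.Agent.CGT.DceMul

set_option autoImplicit false
set_option linter.style.haveILetI false

/-! Further glue for double coset enumerations: extra letters, a second normalised relator,
and the lift of an element of order three inverted by `z`. -/

namespace Cfsg.Agent.CGT

open Equiv

/-- One new letter is tested against its word. -/
noncomputable def extJ (k : ℕ) (ns ns' : List Net) (W : List (List ℕ)) (j : ℕ) : Bool :=
  allLt k fun t => Nat.beq (gatW ns (nth [] W j) (sl t k)) (gat ns' (Nat.mul 2 j) (sl t k))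

theorem allL_app {α : Type} {l l' : List α} {p : α → Bool} (h : allL l p = true)
    (h' : allL l' p = true) : allL (l ++ l') p = true :=
  allL_iff.2 fun a ha => (List.mem_append.1 ha).elim (allL_iff.1 h a) (allL_iff.1 h' a)

theorem extOK_of {k : ℕ} {ns ns' : List Net} {W : List (List ℕ)} {l : List ℕ}
    (h : allL l (extJ k ns ns' W) = true)
    (h' : (Nat.beq W.length ns'.length && allLt W.length fun j => memL j l) = true) :
    extOK k ns ns' W = true := by
  rw [Bool.and_eq_true, allLt_iff] at h'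
  rw [extOK, Bool.and_eq_true, allLt_iff]
  exact ⟨h'.1, fun j hj => allL_iff.1 h j (memL_sound (h'.2 j hj))⟩

/-- Every word of `D` is in `R` up to a rotation. -/
noncomputable def subRot (R D : List (List ℕ)) : Bool :=
  allL D fun z => !(allLt (z.length + 1) fun n => !(memLL (List.drop n z ++ List.take n z) R))

theorem Holds.subRot {X : Type*} [Group X] {g : ℕ → X} {R D : List (List ℕ)} (h : Holds g R)
    (hs : subRot R D = true) : Holds g D := fun z hz => by
  have h1 := allL_iff.1 hs z hz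
  rw [Bool.not_eq_true', ← Bool.not_eq_true, allLt_iff] at h1
  push Not at h1
  obtain ⟨n, -, h2⟩ := h1
  rw [ne_eq, Bool.not_eq_true', Bool.not_eq_false] at h2
  have h3 := h _ (memLL_sound h2)
  rwa [ev_append, mul_eq_one_comm, ← ev_append, List.take_append_drop] at h3

theorem Holds.expand {X : Type*} [Group X] {g : ℕ → X} {W R : List (List ℕ)}
    (h : Holds (ext (wg g W)) R) : Holds (ext g) (R.map (expand (dbl W))) := fun r hr => by
  obtain ⟨u, hu, rfl⟩ := List.mem_map.1 hr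
  rw [ev_expand_dbl]; exact h u hu

theorem Holds.of_expand {X : Type*} [Group X] {g : ℕ → X} {W R : List (List ℕ)}
    (h : Holds (ext g) (R.map (CGT.expand (dbl W)))) : Holds (ext (wg g W)) R := fun r hr => by
  rw [← ev_expand_dbl]; exact h _ (List.mem_map_of_mem hr)

theorem Holds.map {X Y : Type*} [Group X] [Group Y] {g : ℕ → X} {R : List (List ℕ)}
    (h : Holds (ext g) R) (f : X →* Y) : Holds (ext fun j => f (g j)) R := fun r hr => by
  rw [← map_ev_ext, h r hr, map_one]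

/-- All letters are below the bound. -/
noncomputable def lowW (m : ℕ) (W : List (List ℕ)) : Bool :=
  allL W fun w => allL w fun a => Nat.blt a (Nat.mul 2 m)

theorem ev_low {X : Type*} [Group X] {g g' : ℕ → X} {m : ℕ} (h : ∀ j < m, g j = g' j)
    {W : List (List ℕ)} (hW : lowW m W = true) {w : List ℕ} (hw : w ∈ W) :
    ev (ext g) w = ev (ext g') w :=
  ev_congr fun a ha => by
    have h1 : a < 2 * m := Nat.blt_eq ▸ allL_iff.1 (allL_iff.1 hW w hw) a ha
    rw [ext, ext, h (a / 2) (by omega)]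

theorem Holds.low {X : Type*} [Group X] {g g' : ℕ → X} {m : ℕ} {R : List (List ℕ)}
    (hR : Holds (ext g) R) (h : ∀ j < m, g j = g' j) (hW : lowW m R = true) : Holds (ext g') R :=
  fun r hr => (ev_low h hW hr).symm.trans (hR r hr)

theorem wg_low {X : Type*} [Group X] {g g' : ℕ → X} {m : ℕ} (h : ∀ j < m, g j = g' j)
    {W : List (List ℕ)} (hW : lowW m W = true) : wg g W = wg g' W := by
  funext j
  rcases Enum.nth_mem_or [] W j with h' | h'
  · rw [wg, wg, h']; rfl
  · exact ev_low h hW h'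

/-- The letters of `K` followed by `z`. -/
def pz {K X : Type*} [Group K] [Group X] (σ : K →* X) (γ : ℕ → K) (m : ℕ) (z : X) (j : ℕ) : X :=
  if j = m then z else σ (γ j)

theorem pz_lt {K X : Type*} [Group K] [Group X] (σ : K →* X) (γ : ℕ → K) {m : ℕ} (z : X) {j : ℕ}
    (hj : j < m) : σ (γ j) = pz σ γ m z j := (if_neg hj.ne).symm

theorem zt_wg {K X : Type*} [Group K] [Group X] (σ : K →* X) (γ : ℕ → K) {m : ℕ} (z : X)
    {W : List (List ℕ)} (hW : lowW m W = true) :
    zt σ (wg γ W) z = wg (pz σ γ m z) ([2 * m] :: W) := by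
  funext j
  cases j with
  | zero => show z = ev _ [2 * m]; rw [ev_singleton, ext_two_mul, pz, if_pos rfl]
  | succ j =>
    show σ (ev _ (nth [] W j)) = wg (pz σ γ m z) W j
    rw [map_ev_ext, ← wg_low (fun _ hj => pz_lt σ γ z hj) hW]; rfl

/-- Two lifts of a homomorphism from a perfect group agree. -/
theorem lift_unique {K G Γ : Type*} [Group K] [Group G] [Group Γ] (hp : commutator K = ⊤)
    {π : Γ →* G} (hc : π.ker ≤ Subgroup.center Γ) {f g : K →* Γ} (h : π.comp f = π.comp g) :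
    f = g := by
  have h1 : ∀ x, ∃ c ∈ Subgroup.center Γ, f x = g x * c := fun x =>
    ⟨(g x)⁻¹ * f x, hc (by
      rw [MonoidHom.mem_ker, map_mul, map_inv, inv_mul_eq_one]
      exact (DFunLike.congr_fun h x).symm), by group⟩
  have h2 : commutator K ≤ f.eqLocus g := by
    rw [commutator_def, Subgroup.commutator_le]
    intro x _ y _
    obtain ⟨c, hc1, e1⟩ := h1 x
    obtain ⟨d, hd1, e2⟩ := h1 y
    show f _ = g _
    rw [map_commutatorElement, map_commutatorElement, e1, e2, commutatorElement_def,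
      commutatorElement_def]
    have c1 := Subgroup.mem_center_iff.1 hc1
    have d1 := Subgroup.mem_center_iff.1 hd1
    calc _ = g x * (c * (g y * d)) * c⁻¹ * (g x)⁻¹ * d⁻¹ * (g y)⁻¹ := by group
      _ = g x * g y * (d * (g x)⁻¹) * d⁻¹ * (g y)⁻¹ := by rw [← c1]; group
      _ = _ := by rw [← d1]; group
  exact MonoidHom.ext fun x => h2 (hp ▸ Subgroup.mem_top x)

/-- An element of order three inverted by `z` has a lift with the same properties. -/
theorem exists_lift_three {G Γ : Type*} [Group G] [Group Γ] {π : Γ →* G}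
    (hs : Function.Surjective π) (hc : π.ker ≤ Subgroup.center Γ) {t z : G} (h3 : t * t * t = 1)
    (hz : z⁻¹ * t * z * t = 1) :
    ∃ t', π t' = t ∧ t' * t' * t' = 1 ∧ ∀ z', π z' = z → z'⁻¹ * t' * z' * t' = 1 := by
  obtain ⟨t0, rfl⟩ := hs t
  obtain ⟨z0, rfl⟩ := hs z
  have k0 : t0 * t0 * t0 ∈ π.ker := by simpa [MonoidHom.mem_ker] using h3
  have k1 : z0⁻¹ * t0 * z0 * t0 ∈ π.ker := by simpa [MonoidHom.mem_ker] using hz
  have c0 := Subgroup.mem_center_iff.1 (hc k0)
  have c1 := Subgroup.mem_center_iff.1 (hc k1)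
  have e0 : z0⁻¹ * (t0 * t0 * t0) * z0 = t0 * t0 * t0 := by rw [mul_assoc, ← c0]; group
  generalize ha : t0 * t0 * t0 = a at *
  generalize hb : z0⁻¹ * t0 * z0 * t0 = b at *
  have cb : ∀ g, Commute g b := c1
  have ca : ∀ g, Commute g a := c0
  have ha' : t0 ^ 3 = a := by rw [← ha]; simp [pow_succ]
  have e1 : z0⁻¹ * t0 * z0 = t0⁻¹ * b := by rw [(cb _).eq, ← hb]; group
  have e2 : a = a⁻¹ * b ^ 3 := by
    have : z0⁻¹ * t0 ^ 3 * z0 = (t0⁻¹ * b) ^ 3 := by rw [← e1]; simp [pow_succ, mul_assoc]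
    rwa [(cb _).mul_pow, inv_pow, ha', e0] at this
  have cd : ∀ g, Commute g (b * a⁻¹) := fun g => (cb g).mul_right (ca g).inv_right
  have e3 : b ^ 3 * (a⁻¹ * a⁻¹) = 1 := by
    rw [← mul_assoc, ← ((cb a⁻¹).pow_right 3).eq, ← e2, mul_inv_cancel]
  have e4 : b * ((b * a⁻¹) * (b * a⁻¹)) = 1 := by
    rw [← e3, mul_assoc b a⁻¹, ← mul_assoc a⁻¹, (cb a⁻¹).eq]; simp only [pow_succ, pow_zero]; group
  refine ⟨t0 * (b * a⁻¹), ?_, ?_, fun z' hz' => ?_⟩
  · rw [map_mul, map_mul, map_inv, show π a = 1 from k0, show π b = 1 from k1]; simp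
  · have : t0 * (b * a⁻¹) * (t0 * (b * a⁻¹)) * (t0 * (b * a⁻¹)) = (t0 * (b * a⁻¹)) ^ 3 := by
      simp only [pow_succ, pow_zero, one_mul]
    rw [this, (cd _).mul_pow, ha', (cb _).symm.mul_pow, ((ca _).symm).left_comm, ← e3]
    simp only [pow_succ, pow_zero]; group
  · have k2 : z0⁻¹ * z' ∈ π.ker := by simp [MonoidHom.mem_ker, hz']
    have c2 := Subgroup.mem_center_iff.1 (hc k2)
    obtain ⟨w, rfl⟩ : ∃ w, z' = z0 * w := ⟨z0⁻¹ * z', by group⟩
    rw [inv_mul_cancel_left] at c2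
    generalize b * a⁻¹ = d at *
    calc _ = w⁻¹ * (z0⁻¹ * (t0 * d) * z0 * w) * (t0 * d) := by group
      _ = z0⁻¹ * t0 * (d * (z0 * t0)) * d := by rw [c2]; group
      _ = z0⁻¹ * t0 * z0 * t0 * (d * d) := by rw [← (cd _).eq]; group
      _ = 1 := by rw [hb, e4]

namespace Dce

variable {K : Type*} [Group K] (D : Dce)

noncomputable def kills2 (n : ℕ) (m : List ℤ) (i1 : ℕ) (cf : List (ℤ × ℤ × List (ℤ × ℕ))) : Bool :=
  allLt cf.length fun i => D.comb n (nth (0, 0, []) cf i).2.2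
    (addZ (addZ (unitZ i) (smulZ (Int.neg (nth (0, 0, []) cf i).1) m))
      (smulZ (Int.neg (nth (0, 0, []) cf i).2.1) (unitZ i1)))

variable {D}

/-- The multiplier is trivial; the section is chosen so that one further relator holds. -/
theorem closed_of2 {G : Type} [Group G] {φ : K →* Perm ℕ} {γ : ℕ → K} {ρ : K →* G} {z : G}
    {ns : List Net} (M : Model φ γ D.k ns D.ts) (hB : IsBase φ ⊤ D.B) (hp : ptsOK D.k D.B = true)
    {ZR : List (List ℕ)} (hZ : Holds (ext (zt ρ γ z)) ZR) {i0 : ℕ} {pj : List ℕ} {rj : List (ℕ × ℕ)}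
    (h : D.hypB ZR i0 pj rj = true) {n : ℕ} {m : List ℤ} {i1 : ℕ}
    {cf : List (ℤ × ℤ × List (ℤ × ℕ))}
    (hk : D.kills2 n m i1 cf = true) (hm : dotc ZR m 0 = 1 ∧ cf.length = ZR.length)
    (hup : ∀ {Γ A : Type} [Group Γ] [CommGroup A] {X : Ctx K Γ A}, D.Hyp X ns → D.Upto X n)
    (hsec : ∀ (Γ : Type) [Group Γ] [Finite Γ] (π : Γ →* G), IsStemExtension π →
      ∃ σ : K →* Γ, π.comp σ = ρ ∧ (∀ k, σ k ∈ π.ker → σ k = 1) ∧
        ∀ z', π z' = z → ev (ext (zt σ γ z')) (nth [] ZR i1) = 1)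
    (hlift : ∀ (Γ : Type) [Group Γ] (σ : K →* Γ) (z' : Γ), Holds (ext (zt σ γ z')) ZR →
      ∃ f : G →* Γ, f.comp ρ = σ ∧ f z = z')
    (hgen : Subgroup.closure (Set.range ρ ∪ {z}) = ⊤) : Cover.Closed G := by
  intro Γ _ _ π hπ
  letI : CommGroup (Subgroup.center Γ) :=
    { (inferInstance : Group (Subgroup.center Γ)) with
      mul_comm := fun a b => Subtype.ext (Subgroup.mem_center_iff.1 b.2 a.1) }
  obtain ⟨σ, h1, h2, h2'⟩ := hsec Γ π hπ
  obtain ⟨z0, hz0⟩ := hπ.1 z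
  have hker : ∀ z', π z' = z → ∀ i, ev (ext (zt σ γ z')) (nth [] ZR i) ∈ π.ker := fun z' hz' i => by
    rw [MonoidHom.mem_ker, map_ev_zt, h1, hz']; exact Enum.holds_nth hZ i
  let c0 : ℕ → Subgroup.center Γ := fun i => ⟨_, hπ.2.1 (hker z0 hz0 i)⟩
  let α := (tv c0 m 0)⁻¹
  have hk0 : ∀ (c : ℕ → Subgroup.center Γ), (∀ i, (c i : Γ) ∈ π.ker) → ∀ v i,
      ((tv c v i : Subgroup.center Γ) : Γ) ∈ π.ker := fun c hc v => by
    induction v with
    | nil => exact fun _ => π.ker.one_mem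
    | cons a v ih => exact fun i => π.ker.mul_mem (π.ker.zpow_mem (hc i) a) (ih _)
  have hα : (α : Γ) ∈ π.ker := π.ker.inv_mem (hk0 c0 (hker z0 hz0) m 0)
  have hz1 : π (z0 * α) = z := by rw [map_mul, hz0, hα, mul_one]
  let X : Ctx K Γ (Subgroup.center Γ) := ⟨φ, γ, σ, z0 * α, (Subgroup.center Γ).subtype,
    fun i => c0 i * α ^ cnt (ZR.getD i []), σ.range⟩
  have hc : ∀ i, ev (ext (zt σ γ (z0 * α))) (nth [] ZR i) = X.ι (X.c i) := fun i => by
    rw [ev_zt_mul σ γ z0 fun g => (Subgroup.mem_center_iff.1 α.2 g).symm, nth_eq]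
    simp [X, c0, nth_eq]
  have hy : D.Hyp X ns := hyp_of M hB hp (fun a g => (Subgroup.mem_center_iff.1 a.2 g).symm)
    (fun h => ⟨h, rfl⟩) hc h
  have hm1 : X.τ m = 1 := by
    show X.ι (tv (fun i => c0 i * α ^ cnt (ZR.getD i [])) m 0) = 1
    rw [tv_mul, hm.1, zpow_one, mul_inv_cancel, map_one]
  have hm2 : X.τ (unitZ i1) = 1 := by
    rw [Ctx.τ, unitZ, tv_unit, zero_add, ← hc]; exact h2' _ hz1
  have hall : Holds (ext (zt σ γ (z0 * α))) ZR := fun w hw => by
    obtain ⟨i, hi, rfl⟩ := List.getElem_of_mem hw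
    have e1 := (hup hy).comb (allLt_iff.1 hk i (hm.2 ▸ hi))
    rw [X.τ_addZ, X.τ_addZ, X.τ_smulZ, X.τ_smulZ, hm1, hm2, one_zpow, one_zpow, mul_one, mul_one,
      Ctx.τ, unitZ, tv_unit, zero_add, ← hc] at e1
    obtain ⟨k, hk'⟩ := e1
    have e2 := h2 k (hk' ▸ hker _ hz1 i)
    rwa [hk', nth_eq, List.getD_eq_getElem _ _ hi] at e2
  obtain ⟨f, f1, f2⟩ := hlift Γ σ _ hall
  refine Cover.ker_eq_bot_of_split hπ f fun g => ?_
  have : Subgroup.closure (Set.range ρ ∪ {z}) ≤ (π.comp f).eqLocus (MonoidHom.id G) := by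
    rw [Subgroup.closure_le]
    rintro _ (⟨k, rfl⟩ | rfl)
    · show π (f.comp ρ k) = ρ k
      rw [f1, ← h1]; rfl
    · show π (f _) = _
      rw [f2, hz1]; rfl
  exact this (hgen ▸ Subgroup.mem_top g)

/-- In the context without tails the tails of the data do not matter. -/
theorem Hyp.untail {K G : Type} [Group K] [Group G] {φ : K →* Perm ℕ} {γ : ℕ → K} {ρ : K →* G} {z : G}
    {H : Subgroup G} {ns : List Net} (h : D.Hyp (ctx0.{0, 0, 0} φ γ ρ z H) ns) (F : BT Fct)
    (df : List ℕ) : Dce.Hyp ⟨D.k, D.ts, D.B, D.P, D.Q, [], D.LW, D.TW, [], D.R, [], F, df, []⟩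
      (ctx0.{0, 0, 0} φ γ ρ z H) ns :=
  ⟨h.M, h.hB, h.hp, h.cen, h.sub, h.inv, h.push, h.rel, fun _ hi => absurd hi List.not_mem_nil⟩

end Dce

end Cfsg.Agent.CGT
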