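import Cfsg.Agent.ThK.Glue

set_option autoImplicit false
set_option Elab.async false
set_option maxRecDepth 100000
set_option linter.all false

namespace Cfsg.Agent.ThK
open Cfsg.Agent.CGT

noncomputable def RR : List (List ℕ) := [[0, 0], [2, 2], [4, 4], [6, 6], [8, 8], [0, 2, 0, 2, 0, 2], [0, 8, 0, 8], [2, 4, 2, 4, 2, 4], [2, 6, 2, 6], [2, 8, 2, 8], [0, 7, 5, 7, 5, 7, 5, 7, 5], [4, 8, 4, 8], [6, 8, 6, 8, 6, 8], [2, 4, 6, 8, 2, 4, 6, 8, 2, 4, 6, 8, 2, 4, 6, 8, 2, 4, 6, 8, 2, 4, 6, 8, 2, 4, 6, 8, 2, 4, 6, 8], [10, 10, 10, 10, 10, 10, 10], [11, 1, 10, 0], [11, 3, 10, 2], [11, 5, 10, 4], [10, 6, 10, 6], [9, 11, 8, 11, 11, 9, 10, 10, 10], [12, 12, 12], [13, 1, 12, 0], [13, 3, 12, 2], [13, 5, 12, 4], [13, 7, 12, 6], [13, 9, 12, 8], [13, 10, 12, 11, 11]]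
noncomputable def W : List (List ℕ) := [[0], [2], [4], [6], [8], [10], [12], [3, 5, 1, 2], [10, 10, 8, 11, 11], [11, 12, 8, 10, 6, 8, 4, 6, 4, 6, 8, 11, 6, 8], [10, 13, 8, 10, 6, 8, 4, 6, 4, 6, 8, 11, 11, 6], [6, 4, 6, 8, 11, 8, 11, 13, 6, 4, 6, 8, 10, 4], [8, 10, 12, 6, 4, 6, 8, 11, 6, 4, 6, 8, 11], [11, 8, 6, 4, 6, 8, 11, 6, 4, 6, 8, 10, 10, 6, 4, 6, 8], [10, 10, 8, 11, 6, 4, 6, 8, 11, 8, 4], [6, 4, 6, 8, 0, 2, 4, 0, 2], [6, 4, 6, 2, 4, 6, 0, 2, 4, 6, 8, 6, 4, 6, 4], [6, 6, 6, 2, 4, 8, 10, 13, 4, 6, 0, 12], [10, 2, 10, 12, 2, 4, 10, 0, 10, 8, 13, 0, 2, 0], [6, 12, 6, 8, 8, 11, 2, 12, 4, 8, 0, 10, 6, 4], [10, 6, 2, 13, 11, 4, 12, 4, 10, 6, 6, 4, 0, 8], [10, 0, 13, 0, 0, 8, 0, 2, 4, 10, 0, 6]]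

end Cfsg.Agent.ThK
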