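import Cfsg.Agent.ThK.Tabs_0

set_option autoImplicit false
set_option Elab.async false
set_option maxRecDepth 100000
set_option linter.all false

namespace Cfsg.Agent.ThK
open Cfsg.Agent.CGT

theorem m_p : Holds (lp m_ns) RR := ((holdsB_sound m_v m_p0).append (holdsB_sound m_v m_p1))
theorem x_e : extOK 15 m_ns x_ns W = true := extOK_of (allL_app x_e0 (allL_app x_e1 x_e2)) (by decide +kernel)
theorem x_ts_ok : TabsOK 15 (lp x_ns) x_ts :=
  TabsFrom.ok ⟨TabOK.of_beq x_v x_t0_b,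
    TabOK.of_beq x_v x_t1_b,
    TabOK.of_beq x_v x_t2_b,
    TabOK.of_beq x_v x_t3_b,
    TabOK.of_beq x_v x_t4_b,
    TabOK.of_beq x_v x_t5_b,
    TabOK.of_beq x_v x_t6_b,
    TabOK.of_beq x_v x_t7_b,
    TabOK.of_beq x_v x_t8_b,
    TabOK.of_beq x_v x_t9_b,
    TabOK.of_beq x_v x_t10_b,
    TabOK.of_beq x_v x_t11_b,
    TabOK.of_beq x_v x_t12_b,
    TabOK.of_beq x_v x_t13_b,
    TabOK.of_beq x_v x_t14_b,
    TabOK.of_beq x_v x_t15_b,
    TabOK.of_beq x_v x_t16_b,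
    TabOK.of_beq x_v x_t17_b,
    TabOK.of_beq x_v x_t18_b,
    TabOK.of_beq x_v x_t19_b,
    TabOK.of_beq x_v x_t20_b,
    TabOK.of_beq x_v x_t21_b,
    TabOK.of_beq x_v x_t22_b,
    TabOK.of_beq x_v x_t23_b,
    TabOK.of_beq x_v x_t24_b,
    TabOK.of_beq x_v x_t25_b,
    TabOK.of_beq x_v x_t26_b,
    TabOK.of_beq x_v x_t27_b,
    TabOK.of_beq x_v x_t28_b,
    TabOK.of_beq x_v x_t29_b,
    TabOK.of_beq x_v x_t30_b,
    TabOK.of_beq x_v x_t31_b,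
    TabOK.of_beq x_v x_t32_b,
    TabOK.of_beq x_v x_t33_b,
    TabOK.of_beq x_v x_t34_b,
    TabOK.of_beq x_v x_t35_b,
    TabOK.of_beq x_v x_t36_b,
    TabOK.of_beq x_v x_t37_b,
    TabOK.of_beq x_v x_t38_b,
    TabOK.of_beq x_v x_t39_b,
    TabOK.of_beq x_v x_t40_b,
    TabOK.of_beq x_v x_t41_b,
    TabOK.of_beq x_v x_t42_b,
    TabOK.of_beq x_v x_t43_b,
    Nat.le_of_ble_eq_true (by decide +kernel)⟩

end Cfsg.Agent.ThK
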